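import Mathlib
import Cfsg.Agent.LargeEx.Conjugate

set_option autoImplicit false

/-!
Two large extraspecial subgroups whose centres lie in each other.
-/

namespace CfsgLib.LargeEx

variable {G : Type*} [Group G]

/-- Two extraspecial subgroups with centres in each other. -/
structure Pair (Q P : Subgroup G) (z s : G) : Prop where
  e : ExtraData Q z
  f : ExtraData P s
  cQ : ∀ c, (∀ x ∈ Q, c * x = x * c) → c = 1 ∨ c = z
  cP : ∀ c, (∀ x ∈ P, c * x = x * c) → c = 1 ∨ c = s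
  nQ : ∀ c, c * z = z * c → ∀ x ∈ Q, c * x * c⁻¹ ∈ Q
  nP : ∀ c, c * s = s * c → ∀ x ∈ P, c * x * c⁻¹ ∈ P
  sQ : s ∈ Q
  zP : z ∈ P
  ne : s ≠ z

variable {Q P : Subgroup G} {z s : G}

theorem Pair.symm (h : Pair Q P z s) : Pair P Q s z :=
  ⟨h.f, h.e, h.cP, h.cQ, h.nP, h.nQ, h.zP, h.sQ, h.ne.symm⟩

/-- The centralizer of the four-group. -/
def CV (z s : G) : Subgroup G := Subgroup.centralizer {z} ⊓ Subgroup.centralizer {s}

theorem mem_CV {c : G} : c ∈ CV z s ↔ c * z = z * c ∧ c * s = s * c := by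
  simp [CV, Subgroup.mem_inf, Subgroup.mem_centralizer_singleton_iff]

theorem mem_Q1 {x : G} : x ∈ Q ⊓ Subgroup.centralizer ({s} : Set G) ↔ x ∈ Q ∧ x * s = s * x := by
  simp [Subgroup.mem_inf, Subgroup.mem_centralizer_singleton_iff]

/-- The radical. -/
def rad (Q P : Subgroup G) (z s : G) : Subgroup G :=
  (P ⊓ Subgroup.centralizer {z}) ⊔ (Q ⊓ Subgroup.centralizer {s})

theorem rad_symm : rad P Q s z = rad Q P z s := sup_comm _ _

theorem rad_eq_closure : rad Q P z s =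
    Subgroup.closure ((↑(P ⊓ Subgroup.centralizer ({z} : Set G)) : Set G) ∪ ↑(Q ⊓ Subgroup.centralizer ({s} : Set G))) := by
  rw [Subgroup.closure_union, Subgroup.closure_eq, Subgroup.closure_eq]; rfl

theorem Q1_le_CV (h : Pair Q P z s) : Q ⊓ Subgroup.centralizer ({s} : Set G) ≤ CV z s := fun x hx =>
  mem_CV.2 ⟨(h.e.comm x (mem_Q1.1 hx).1).symm, (mem_Q1.1 hx).2⟩

theorem rad_le_CV (h : Pair Q P z s) : rad Q P z s ≤ CV z s :=
  sup_le (by rw [CV, inf_comm (Subgroup.centralizer ({z} : Set G))]; exact Q1_le_CV h.symm) (Q1_le_CV h)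

theorem mem_E (h : Pair Q P z s) {x : G} (hQ : x ∈ Q) (hP : x ∈ P) : x * z = z * x ∧ x * s = s * x :=
  ⟨(h.e.comm x hQ).symm, (h.f.comm x hP).symm⟩

theorem inf_eq (h : Pair Q P z s) :
    (P ⊓ Subgroup.centralizer ({z} : Set G)) ⊓ (Q ⊓ Subgroup.centralizer ({s} : Set G)) = Q ⊓ P := by
  refine le_antisymm (fun x hx => ⟨hx.2.1, hx.1.1⟩) fun x hx => ?_
  obtain ⟨h1, h2⟩ := mem_E h hx.1 hx.2
  exact ⟨⟨hx.2, Subgroup.mem_centralizer_singleton_iff.2 h1⟩, ⟨hx.1, Subgroup.mem_centralizer_singleton_iff.2 h2⟩⟩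

theorem CV_conj (h : Pair Q P z s) {c x : G} (hc : c ∈ CV z s) (hx : x ∈ Q ⊓ P) : c * x * c⁻¹ ∈ Q ⊓ P :=
  ⟨h.nQ c (mem_CV.1 hc).1 x hx.1, h.nP c (mem_CV.1 hc).2 x hx.2⟩

theorem gen_bracket (h : Pair Q P z s) {a b : G}
    (ha : a ∈ (↑(P ⊓ Subgroup.centralizer ({z} : Set G)) : Set G) ∪ ↑(Q ⊓ Subgroup.centralizer ({s} : Set G)))
    (hb : b ∈ (↑(P ⊓ Subgroup.centralizer ({z} : Set G)) : Set G) ∪ ↑(Q ⊓ Subgroup.centralizer ({s} : Set G))) :
    a * b * a⁻¹ * b⁻¹ ∈ Q ⊓ P := by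
  have key : ∀ {Q P : Subgroup G} {z s : G}, Pair Q P z s → ∀ p q, p * z = z * p → p ∈ P → q ∈ Q → q * s = s * q →
      p * q * p⁻¹ * q⁻¹ ∈ Q ⊓ P := by
    intro Q P z s h p q hp hpP hq hqs
    refine ⟨Q.mul_mem (h.nQ p hp q hq) (Q.inv_mem hq), ?_⟩
    rw [show p * q * p⁻¹ * q⁻¹ = p * (q * p⁻¹ * q⁻¹) by group]
    exact P.mul_mem hpP (h.nP q hqs _ (P.inv_mem hpP))
  have key2 : ∀ {Q P : Subgroup G} {z s : G}, Pair Q P z s → ∀ p q, p ∈ Q → q ∈ Q →
      p * q * p⁻¹ * q⁻¹ ∈ Q ⊓ P := by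
    intro Q P z s h p q hp hq
    rcases h.e.bracket p hp q hq with e | e
    · rw [e, mul_inv_cancel_right, mul_inv_cancel]; exact one_mem _
    · have : p * q * p⁻¹ * q⁻¹ = z := by
        rw [e]
        calc q * p * z * p⁻¹ * q⁻¹ = q * (p * z) * p⁻¹ * q⁻¹ := by group
          _ = q * (z * p) * p⁻¹ * q⁻¹ := by rw [h.e.comm p hp]
          _ = (q * z) * q⁻¹ := by group
          _ = (z * q) * q⁻¹ := by rw [h.e.comm q hq]
          _ = z := by group
      rw [this]; exact ⟨h.e.mem, h.zP⟩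
  rcases ha with ha | ha <;> rcases hb with hb | hb
  · rw [inf_comm]; exact key2 h.symm a b ha.1 hb.1
  · exact key h a b (Subgroup.mem_centralizer_singleton_iff.1 ha.2) ha.1 (mem_Q1.1 hb).1 (mem_Q1.1 hb).2
  · rw [inf_comm]
    exact key h.symm a b (mem_Q1.1 ha).2 (mem_Q1.1 ha).1 hb.1 (Subgroup.mem_centralizer_singleton_iff.1 hb.2)
  · exact key2 h a b ha.1 hb.1

theorem rad_bracket (h : Pair Q P z s) {x y : G} (hx : x ∈ rad Q P z s) (hy : y ∈ rad Q P z s) :
    x * y * x⁻¹ * y⁻¹ ∈ Q ⊓ P := by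
  have hA : ∀ b ∈ (↑(P ⊓ Subgroup.centralizer ({z} : Set G)) : Set G) ∪ ↑(Q ⊓ Subgroup.centralizer ({s} : Set G)),
      ∀ x ∈ rad Q P z s, x * b * x⁻¹ * b⁻¹ ∈ Q ⊓ P := by
    intro b hb x hx
    rw [rad_eq_closure] at hx
    induction hx using Subgroup.closure_induction with
    | mem a ha => exact gen_bracket h ha hb
    | one => simp [one_mem]
    | mul p q hp hq ihp ihq =>
      rw [← rad_eq_closure] at hp
      rw [show p * q * b * (p * q)⁻¹ * b⁻¹ = p * (q * b * q⁻¹ * b⁻¹) * p⁻¹ * (p * b * p⁻¹ * b⁻¹) by group]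
      exact mul_mem (CV_conj h (rad_le_CV h hp) ihq) ihp
    | inv p hp ihp =>
      rw [← rad_eq_closure] at hp
      rw [show p⁻¹ * b * p⁻¹⁻¹ * b⁻¹ = p⁻¹ * (p * b * p⁻¹ * b⁻¹)⁻¹ * p⁻¹⁻¹ by group]
      exact CV_conj h (inv_mem (rad_le_CV h hp)) (inv_mem ihp)
  rw [rad_eq_closure] at hy
  induction hy using Subgroup.closure_induction with
  | mem b hb => exact hA b hb x hx
  | one => simp [one_mem]
  | mul p q hp hq ihp ihq =>
    rw [← rad_eq_closure] at hp
    rw [show x * (p * q) * x⁻¹ * (p * q)⁻¹ = (x * p * x⁻¹ * p⁻¹) * (p * (x * q * x⁻¹ * q⁻¹) * p⁻¹) by group]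
    exact mul_mem ihp (CV_conj h (rad_le_CV h hp) ihq)
  | inv p hp ihp =>
    rw [← rad_eq_closure] at hp
    rw [show x * p⁻¹ * x⁻¹ * p⁻¹⁻¹ = p⁻¹ * (x * p * x⁻¹ * p⁻¹)⁻¹ * p⁻¹⁻¹ by group]
    exact CV_conj h (inv_mem (rad_le_CV h hp)) (inv_mem ihp)

theorem rad_sq (h : Pair Q P z s) {x : G} (hx : x ∈ rad Q P z s) : x * x ∈ Q ⊓ P := by
  rw [rad_eq_closure] at hx
  induction hx using Subgroup.closure_induction with
  | mem a ha =>
    rcases ha with ha | ha
    · rcases h.f.sq_mem ha.1 with e | e <;> rw [e]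
      · exact one_mem _
      · exact ⟨h.sQ, h.f.mem⟩
    · rcases h.e.sq_mem ha.1 with e | e <;> rw [e]
      · exact one_mem _
      · exact ⟨h.e.mem, h.zP⟩
  | one => simp [one_mem]
  | mul p q hp hq ihp ihq =>
    rw [← rad_eq_closure] at hp hq
    rw [show p * q * (p * q) = p * (q * p * q⁻¹ * p⁻¹) * p⁻¹ * ((p * p) * (q * q)) by group]
    exact mul_mem (CV_conj h (rad_le_CV h hp) (rad_bracket h hq hp)) (mul_mem ihp ihq)
  | inv p hp ihp =>
    rw [show p⁻¹ * p⁻¹ = (p * p)⁻¹ by group]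
    exact inv_mem ihp

theorem E_sq (h : Pair Q P z s) {x : G} (hx : x ∈ Q ⊓ P) : x ^ 2 = 1 := by
  rw [pow_two]
  rcases h.e.sq_mem hx.1 with e | e
  · exact e
  · rcases h.f.sq_mem hx.2 with e' | e'
    · exact e'
    · exact absurd (e.symm.trans e') h.ne.symm

theorem E_comm (h : Pair Q P z s) {x y : G} (hx : x ∈ Q ⊓ P) (hy : y ∈ Q ⊓ P) : x * y = y * x := by
  rcases h.e.bracket x hx.1 y hy.1 with e | e
  · exact e
  · rcases h.f.bracket x hx.2 y hy.2 with e' | e'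
    · exact e'
    · exact absurd (mul_left_cancel (e.symm.trans e')) h.ne.symm

theorem E_le_rad (h : Pair Q P z s) : Q ⊓ P ≤ rad Q P z s := fun x hx =>
  Subgroup.mem_sup_right (mem_Q1.2 ⟨hx.1, (mem_E h hx.1 hx.2).2⟩)

theorem mem_V_iff (h : Pair Q P z s) {x : G} :
    x ∈ Subgroup.closure ({z, s} : Set G) ↔ x = 1 ∨ x = z ∨ x = s ∨ x = s * z := by
  constructor
  · intro hx
    have hzs : z * s = s * z := h.e.comm s h.sQ
    have h2 := h.f.sq
    have h1 := h.e.sq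
    induction hx using Subgroup.closure_induction with
    | mem a ha => rcases ha with rfl | rfl <;> simp
    | one => simp
    | mul p q _ _ ihp ihq =>
      have e1 : z * (s * z) = s := by rw [← mul_assoc, hzs, mul_assoc, h1, mul_one]
      have e2 : s * (s * z) = z := by rw [← mul_assoc, h2, one_mul]
      have e3 : s * z * z = s := by rw [mul_assoc, h1, mul_one]
      have e4 : s * z * s = z := by rw [mul_assoc, hzs, e2]
      have e5 : s * z * (s * z) = 1 := by rw [mul_assoc, e1, h2]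
      rcases ihp with rfl | rfl | rfl | rfl <;> rcases ihq with rfl | rfl | rfl | rfl <;>
        simp [h1, h2, hzs, e1, e2, e3, e4, e5]
    | inv p _ ihp =>
      have e5 : (s * z)⁻¹ = s * z := by rw [mul_inv_rev, h.e.inv_eq, h.f.inv_eq, hzs]
      rcases ihp with rfl | rfl | rfl | rfl
      · simp
      · simp [h.e.inv_eq]
      · simp [h.f.inv_eq]
      · simp [e5]
  · have hz : z ∈ Subgroup.closure ({z, s} : Set G) := Subgroup.subset_closure (Or.inl rfl)
    have hs : s ∈ Subgroup.closure ({z, s} : Set G) := Subgroup.subset_closure (Or.inr rfl)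
    rintro (rfl | rfl | rfl | rfl)
    exacts [one_mem _, hz, hs, mul_mem hs hz]

theorem exists_outside (h : Pair Q P z s) : ∃ x ∈ Q, x * s ≠ s * x ∧ x * s * x⁻¹ = s * z := by
  obtain ⟨x, hx, e⟩ := h.e.exists_conj_mul h.sQ h.f.ne_one h.ne
  refine ⟨x, hx, fun hc => h.e.ne_one ?_, e⟩
  rw [hc, mul_inv_cancel_right, left_eq_mul] at e
  exact e

/-- An element centralizing the four-group and `Q ∩ C(s)` lies in the four-group. -/
theorem mem_V_of_centralizes (h : Pair Q P z s) {c : G} (hc : c ∈ CV z s)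
    (hq : ∀ v ∈ Q, v * s = s * v → c * v = v * c) : c = 1 ∨ c = z ∨ c = s ∨ c = s * z := by
  obtain ⟨hcz, hcs⟩ := mem_CV.1 hc
  obtain ⟨x, hx, hxs, hxc⟩ := exists_outside h
  set w := x⁻¹ * (c * x * c⁻¹) with hw
  have hwQ : w ∈ Q := Q.mul_mem (Q.inv_mem hx) (h.nQ c hcz x hx)
  have hcx : c * x * c⁻¹ = x * w := by rw [hw]; group
  have hsz : z * s = s * z := h.e.comm s h.sQ
  have hxinv : x⁻¹ * s * x = s * z := by
    have : x * (s * z) * x⁻¹ = s := by
      calc x * (s * z) * x⁻¹ = (x * s * x⁻¹) * (x * z * x⁻¹) := by group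
        _ = s * z * z := by rw [hxc, ← h.e.comm x hx]; group
        _ = s := by rw [mul_assoc, h.e.sq, mul_one]
    calc x⁻¹ * s * x = x⁻¹ * (x * (s * z) * x⁻¹) * x := by rw [this]
      _ = s * z := by group
  have hnorm : ∀ v ∈ Q, v * s = s * v → x * v * x⁻¹ * s = s * (x * v * x⁻¹) := by
    intro v hv hvs
    have hvz := h.e.comm v hv
    calc x * v * x⁻¹ * s = x * (v * (x⁻¹ * s * x)) * x⁻¹ := by group
      _ = x * ((v * s) * z) * x⁻¹ := by rw [hxinv, ← mul_assoc v]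
      _ = x * (s * (v * z)) * x⁻¹ := by rw [hvs, mul_assoc s]
      _ = x * (s * (z * v)) * x⁻¹ := by rw [hvz]
      _ = x * (x⁻¹ * s * x * v) * x⁻¹ := by rw [hxinv]; group
      _ = s * (x * v * x⁻¹) := by group
  have hwc : ∀ v ∈ Q, v * s = s * v → w * v = v * w := by
    intro v hv hvs
    have h1 := hq _ (Q.mul_mem (Q.mul_mem hx hv) (Q.inv_mem hx)) (hnorm v hv hvs)
    have h2 : (c * x * c⁻¹) * (c * v * c⁻¹) * (c * x * c⁻¹)⁻¹ = x * v * x⁻¹ := by
      calc (c * x * c⁻¹) * (c * v * c⁻¹) * (c * x * c⁻¹)⁻¹ = c * (x * v * x⁻¹) * c⁻¹ := by group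
        _ = x * v * x⁻¹ := by rw [h1]; group
    rw [hq v hv hvs, mul_inv_cancel_right, hcx] at h2
    calc w * v = x⁻¹ * (x * w * v * (x * w)⁻¹) * (x * w) := by group
      _ = v * w := by rw [h2]; group
  have hwopt := h.e.central_in_centralizer h.sQ h.f.ne_one h.ne hwQ (hwc s h.sQ rfl) hwc
  have hfin : ∀ d, d ∈ CV z s → (∀ v ∈ Q, v * s = s * v → d * v = v * d) → d * x = x * d → d = 1 ∨ d = z := by
    intro d hd hdv hdx
    refine h.cQ d fun y hy => ?_
    by_cases hys : y * s = s * y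
    · exact hdv y hy hys
    have h1 := h.e.conj_eq_mul h.sQ hy hys
    have hmem : x⁻¹ * y * s = s * (x⁻¹ * y) := by
      calc x⁻¹ * y * s = x⁻¹ * (y * s * y⁻¹) * y := by group
        _ = x⁻¹ * (x * s * x⁻¹) * y := by rw [h1, hxc]
        _ = s * (x⁻¹ * y) := by group
    calc d * y = (d * x) * (x⁻¹ * y) := by group
      _ = x * (d * (x⁻¹ * y)) := by rw [hdx, mul_assoc]
      _ = x * ((x⁻¹ * y) * d) := by rw [hdv _ (Q.mul_mem (Q.inv_mem hx) hy) hmem]
      _ = y * d := by group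
  rcases hwopt with hw' | hw' | hw' | hw'
  · have hcx' : c * x = x * c := by
      rw [hw', mul_one] at hcx
      calc c * x = c * x * c⁻¹ * c := by group
        _ = x * c := by rw [hcx]
    rcases hfin c hc hq hcx' with e | e <;> simp [e]
  · -- then `c * s` centralizes `Q`
    have hsx : s * x * s⁻¹ = x * z := by
      calc s * x * s⁻¹ = x * (x⁻¹ * s * x) * s⁻¹ := by group
        _ = x * (s * z * s⁻¹) := by rw [hxinv]; group
        _ = x * z := by rw [← hsz, mul_inv_cancel_right]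
    have hd : (c * s) * x = x * (c * s) := by
      calc (c * s) * x = c * (s * x * s⁻¹) * s := by group
        _ = (c * x * c⁻¹) * (c * z) * s := by rw [hsx]; group
        _ = x * z * (z * c) * s := by rw [hcx, hw', hcz]
        _ = x * (z * z) * (c * s) := by group
        _ = x * (c * s) := by rw [h.e.sq, mul_one]
    have hcsCV : c * s ∈ CV z s := mul_mem hc (mem_CV.2 ⟨hsz.symm, rfl⟩)
    have hcsv : ∀ v ∈ Q, v * s = s * v → (c * s) * v = v * (c * s) := fun v hv hvs => by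
      rw [mul_assoc, ← hvs, ← mul_assoc, hq v hv hvs, mul_assoc]
    rcases hfin (c * s) hcsCV hcsv hd with e | e
    · exact Or.inr (Or.inr (Or.inl (by rw [mul_eq_one_iff_eq_inv.1 e, h.f.inv_eq])))
    · refine Or.inr (Or.inr (Or.inr ?_))
      calc c = c * s * s := by rw [mul_assoc, h.f.sq, mul_one]
        _ = s * z := by rw [e, hsz]
  all_goals
    exfalso
    apply h.e.ne_one
    have hw2 : x⁻¹ * w * x = w * z := by
      rw [hw']
      first
        | exact hxinv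
        | calc x⁻¹ * (s * z) * x = (x⁻¹ * s * x) * (x⁻¹ * (z * x)) := by group
            _ = s * z * z := by rw [hxinv, h.e.comm x hx]; group
    have hww : w * w = 1 := by
      rw [hw']
      first
        | exact h.f.sq
        | (rw [mul_assoc, ← mul_assoc z, hsz, mul_assoc s z z, h.e.sq, mul_one, h.f.sq])
    have hsq : c * (x * x) * c⁻¹ = x * x * z := by
      calc c * (x * x) * c⁻¹ = (c * x * c⁻¹) * (c * x * c⁻¹) := by group
        _ = x * x * ((x⁻¹ * w * x) * w) := by rw [hcx]; group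
        _ = x * x * (w * (z * w)) := by rw [hw2]; group
        _ = x * x * (w * w * z) := by rw [h.e.comm w hwQ]; group
        _ = x * x * z := by rw [hww, one_mul]
    have hcomm : c * (x * x) * c⁻¹ = x * x := by
      rcases h.e.sq_mem hx with e | e <;> rw [e]
      · group
      · rw [hcz, mul_inv_cancel_right]
    rw [hcomm] at hsq
    exact mul_eq_left.1 hsq.symm

/-- Commutators of `Q ∩ P` with `Q` lie in the four-group. -/
theorem bracket_E (h : Pair Q P z s) {x e : G} (hx : x ∈ Q ⊔ P) (he : e ∈ Q ⊓ P) :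
    x * e * x⁻¹ * e⁻¹ ∈ Subgroup.closure ({z, s} : Set G) := by
  set V := Subgroup.closure ({z, s} : Set G) with hV
  have hgen : ∀ a, a ∈ (Q : Set G) ∪ P → ∀ e ∈ Q ⊓ P, a * e * a⁻¹ * e⁻¹ ∈ V ∧ ∀ v ∈ V, a * v * a⁻¹ ∈ V := by
    intro a ha e he
    have key : ∀ {Q : Subgroup G} {z : G}, ExtraData Q z → z ∈ V → (∀ v ∈ V, v ∈ Q) → a ∈ Q → e ∈ Q →
        a * e * a⁻¹ * e⁻¹ ∈ V ∧ ∀ v ∈ V, a * v * a⁻¹ ∈ V := by
      intro Q z d hzV hVQ haQ heQ
      have hb : ∀ y ∈ Q, a * y * a⁻¹ = y ∨ a * y * a⁻¹ = y * z := fun y hy => by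
        by_cases hc : a * y = y * a
        · exact Or.inl (by rw [hc, mul_inv_cancel_right])
        · exact Or.inr (d.conj_eq_mul hy haQ hc)
      refine ⟨?_, fun v hv => ?_⟩
      · rcases hb e heQ with e' | e' <;> rw [e']
        · rw [mul_inv_cancel]; exact one_mem _
        · rw [← d.comm e heQ, mul_inv_cancel_right]; exact hzV
      · rcases hb v (hVQ v hv) with e' | e' <;> rw [e']
        · exact hv
        · exact mul_mem hv hzV
    have hzV : z ∈ V := Subgroup.subset_closure (Or.inl rfl)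
    have hsV : s ∈ V := Subgroup.subset_closure (Or.inr rfl)
    have hVle : V ≤ Q ⊓ P := (Subgroup.closure_le _).2 (by
      rintro t (rfl | rfl)
      exacts [⟨h.e.mem, h.zP⟩, ⟨h.sQ, h.f.mem⟩])
    rcases ha with ha | ha
    · exact key h.e hzV (fun v hv => (hVle hv).1) ha he.1
    · exact key h.f hsV (fun v hv => (hVle hv).2) ha he.2
  rw [show Q ⊔ P = Subgroup.closure ((Q : Set G) ∪ P) by
    rw [Subgroup.closure_union, Subgroup.closure_eq, Subgroup.closure_eq]] at hx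
  suffices H : x * e * x⁻¹ * e⁻¹ ∈ V ∧ ∀ v ∈ V, x * v * x⁻¹ ∈ V from H.1
  induction hx using Subgroup.closure_induction with
  | mem a ha => exact hgen a ha e he
  | one => simp [one_mem]
  | mul p q _ _ ihp ihq =>
    refine ⟨?_, fun v hv => ?_⟩
    · rw [show p * q * e * (p * q)⁻¹ * e⁻¹ = p * (q * e * q⁻¹ * e⁻¹) * p⁻¹ * (p * e * p⁻¹ * e⁻¹) by group]
      exact mul_mem (ihp.2 _ ihq.1) ihp.1
    · rw [show p * q * v * (p * q)⁻¹ = p * (q * v * q⁻¹) * p⁻¹ by group]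
      exact ihp.2 _ (ihq.2 v hv)
  | inv p _ ihp =>
    have hinv : ∀ v ∈ V, p⁻¹ * v * p⁻¹⁻¹ ∈ V := by
      intro v hv
      -- four elements: conjugation by `p` permutes the finite set `V`
      have hfin : (V : Set G).Finite := by
        refine Set.Finite.subset (Set.toFinite ({1, z, s, s * z} : Set G)) fun t ht => ?_
        simpa using (mem_V_iff h).1 ht
      have hbij : Set.BijOn (fun t => p * t * p⁻¹) (V : Set G) V :=
        ((hfin.injOn_iff_bijOn_of_mapsTo (fun t ht => ihp.2 t ht)).1 fun a _ b _ e' =>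
          mul_left_cancel (mul_right_cancel e'))
      obtain ⟨t, ht, et⟩ := hbij.surjOn hv
      rw [← et, show p⁻¹ * (p * t * p⁻¹) * p⁻¹⁻¹ = t by group]
      exact ht
    refine ⟨?_, hinv⟩
    rw [show p⁻¹ * e * p⁻¹⁻¹ * e⁻¹ = p⁻¹ * (p * e * p⁻¹ * e⁻¹)⁻¹ * p⁻¹⁻¹ by group]
    exact hinv _ (inv_mem ihp.1)

end CfsgLib.LargeEx
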