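import Mathlib
import Cfsg.Agent.LargeEx.Pair

set_option autoImplicit false

/-!
The symmetric group of degree three acting on the four-group of a pair.
-/

namespace CfsgLib.LargeEx

variable {G : Type*} [Group G] {Q P : Subgroup G} {z s : G}

/-- The setup from the hypotheses on a large extraspecial subgroup. -/
theorem pair_of_large [Finite G] {Q : Subgroup G} (hQ : Cfsg.IsLargeExtraspecial Q) {z : G}
    (hz : (Subgroup.center ↥Q).map Q.subtype = Subgroup.zpowers z) (hz2 : orderOf z = 2) {w : ℕ} (hw : 2 ≤ w)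
    (hcard : Nat.card ↥Q = 2 ^ (2 * w + 1)) {g : G} (hgH : g ∉ Subgroup.centralizer ({z} : Set G))
    (hgQ : g * z * g⁻¹ ∈ Q) :
    Pair Q (Q.map (MulAut.conj g).toMonoidHom) z (g * z * g⁻¹) := by
  obtain ⟨hE, hC, hN, -⟩ := hQ
  obtain ⟨z', e⟩ := exists_extraData hE
  have hzz : z' = z := by
    have h1 : z ∈ Subgroup.zpowers z' := by rw [← e.center_eq, hz]; exact Subgroup.mem_zpowers z
    rcases e.mem_zpowers_iff.1 h1 with h | h
    · rw [h, orderOf_one] at hz2; omega
    · exact h.symm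
  subst hzz
  have hne : g * z' * g⁻¹ ≠ z' := fun h => hgH (Subgroup.mem_centralizer_singleton_iff.2 (by
    calc g * z' = g * z' * g⁻¹ * g := by group
      _ = z' * g := by rw [h]))
  have hCle : Subgroup.centralizer (Q : Set G) ≤ Q := hC ▸ Subgroup.map_subtype_le _
  have hNle : Subgroup.centralizer ({z'} : Set G) ≤ Subgroup.normalizer (Q : Set G) := fun c hc => hN <| by
    rw [hz, Subgroup.mem_centralizer_iff]
    intro x hx
    rcases e.mem_zpowers_iff.1 hx with rfl | rfl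
    · simp
    · exact (Subgroup.mem_centralizer_singleton_iff.1 hc).symm
  have hcard' : 8 < Nat.card Q := by
    rw [hcard]
    exact lt_of_lt_of_le (by norm_num) (Nat.pow_le_pow_right (by norm_num : 1 ≤ 2)
      (show 4 ≤ 2 * w + 1 by omega))
  have hzP := mem_conj_of_conj_mem e hCle hNle hcard' g hgQ hne
  have f : ExtraData (Q.map (MulAut.conj g).toMonoidHom) (g * z' * g⁻¹) := by
    have := e.map (MulAut.conj g).toMonoidHom (MulAut.conj g).injective
    have h2 : (MulAut.conj g).toMonoidHom z' = g * z' * g⁻¹ := by simp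
    rw [h2] at this
    exact this
  have hcQ : ∀ c, (∀ x ∈ Q, c * x = x * c) → c = 1 ∨ c = z' := fun c hc => by
    have : c ∈ Subgroup.centralizer (Q : Set G) := Subgroup.mem_centralizer_iff.2 fun x hx => (hc x hx).symm
    rw [hC] at this
    exact e.mem_center_iff.1 this
  have hnQ : ∀ c, c * z' = z' * c → ∀ x ∈ Q, c * x * c⁻¹ ∈ Q := fun c hc x hx =>
    (Subgroup.mem_normalizer_iff.1 (hNle (Subgroup.mem_centralizer_singleton_iff.2 hc)) x).1 hx
  refine ⟨e, f, hcQ, ?_, hnQ, ?_, hgQ, hzP, hne⟩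
  · intro c hc
    rcases hcQ (g⁻¹ * c * g) (fun x hx => by
      have := hc (g * x * g⁻¹) ⟨x, hx, rfl⟩
      calc g⁻¹ * c * g * x = g⁻¹ * (c * (g * x * g⁻¹)) * g := by group
        _ = g⁻¹ * ((g * x * g⁻¹) * c) * g := by rw [this]
        _ = x * (g⁻¹ * c * g) := by group) with h | h
    · left
      calc c = g * (g⁻¹ * c * g) * g⁻¹ := by group
        _ = 1 := by rw [h]; group
    · right
      calc c = g * (g⁻¹ * c * g) * g⁻¹ := by group
        _ = g * z' * g⁻¹ := by rw [h]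
  · rintro c hc _ ⟨x, hx, rfl⟩
    have h1 : g⁻¹ * c * g * z' = z' * (g⁻¹ * c * g) := by
      calc g⁻¹ * c * g * z' = g⁻¹ * (c * (g * z' * g⁻¹)) * g := by group
        _ = g⁻¹ * ((g * z' * g⁻¹) * c) * g := by rw [hc]
        _ = _ := by group
    refine ⟨_, hnQ _ h1 x hx, ?_⟩
    show g * (g⁻¹ * c * g * x * (g⁻¹ * c * g)⁻¹) * g⁻¹ = c * (g * x * g⁻¹) * c⁻¹
    group

theorem CV_of_Q1 (h : Pair Q P z s) {x : G} (hx : x ∈ Q) (hxs : x * s = s * x) : x ∈ rad Q P z s :=
  Subgroup.mem_sup_right (mem_Q1.2 ⟨hx, hxs⟩)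

theorem conj_s (h : Pair Q P z s) {x : G} (hx : x ∈ Q) : x * s * x⁻¹ = s ∨ x * s * x⁻¹ = s * z := by
  by_cases hc : x * s = s * x
  · exact Or.inl (by rw [hc, mul_inv_cancel_right])
  · exact Or.inr (h.e.conj_eq_mul h.sQ hx hc)

theorem CV_conj_Q (h : Pair Q P z s) {x c : G} (hx : x ∈ Q) (hc : c ∈ CV z s) : x * c * x⁻¹ ∈ CV z s := by
  obtain ⟨h1, h2⟩ := mem_CV.1 hc
  have ez : x * z * x⁻¹ = z := by rw [← h.e.comm x hx, mul_inv_cancel_right]
  have k1 : x * c * x⁻¹ * z = z * (x * c * x⁻¹) := by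
    calc x * c * x⁻¹ * z = x * c * x⁻¹ * (x * z * x⁻¹) := by rw [ez]
      _ = x * (c * z) * x⁻¹ := by group
      _ = x * (z * c) * x⁻¹ := by rw [h1]
      _ = (x * z * x⁻¹) * (x * c * x⁻¹) := by group
      _ = _ := by rw [ez]
  refine mem_CV.2 ⟨k1, ?_⟩
  have hcc : Commute (x * c * x⁻¹) (x * s * x⁻¹) := by
    show _ = _
    calc x * c * x⁻¹ * (x * s * x⁻¹) = x * (c * s) * x⁻¹ := by group
      _ = x * (s * c) * x⁻¹ := by rw [h2]
      _ = _ := by group
  rcases conj_s h hx with e | e <;> rw [e] at hcc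
  · exact hcc.eq
  · have := hcc.mul_right (show Commute (x * c * x⁻¹) z from k1)
    rw [mul_assoc s z z, h.e.sq, mul_one] at this
    exact this.eq

theorem rad_conj_Q (h : Pair Q P z s) {x r : G} (hx : x ∈ Q) (hr : r ∈ rad Q P z s) :
    x * r * x⁻¹ ∈ rad Q P z s := by
  rw [rad_eq_closure] at hr
  induction hr using Subgroup.closure_induction with
  | mem a ha =>
    have hgen : a ∈ rad Q P z s := by rw [rad_eq_closure]; exact Subgroup.subset_closure ha
    have hcv := CV_conj_Q h hx (rad_le_CV h hgen)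
    rcases ha with ha | ha
    · -- `[x, a] ∈ Q ∩ C(s)`
      have h1 : x * a * x⁻¹ * a⁻¹ ∈ Q := by
        rw [show x * a * x⁻¹ * a⁻¹ = x * (a * x⁻¹ * a⁻¹) by group]
        exact Q.mul_mem hx (h.nQ a (Subgroup.mem_centralizer_singleton_iff.1 ha.2) _ (Q.inv_mem hx))
      have h2 := (mem_CV.1 (mul_mem hcv (inv_mem (rad_le_CV h hgen)))).2
      rw [show x * a * x⁻¹ = (x * a * x⁻¹ * a⁻¹) * a by group]
      exact mul_mem (CV_of_Q1 h h1 h2) hgen
    · exact CV_of_Q1 h (Q.mul_mem (Q.mul_mem hx (mem_Q1.1 ha).1) (Q.inv_mem hx)) (mem_CV.1 hcv).2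
  | one => simp [one_mem]
  | mul p q _ _ ihp ihq =>
    rw [show x * (p * q) * x⁻¹ = x * p * x⁻¹ * (x * q * x⁻¹) by group]; exact mul_mem ihp ihq
  | inv p _ ihp => rw [show x * p⁻¹ * x⁻¹ = (x * p * x⁻¹)⁻¹ by group]; exact inv_mem ihp

theorem rad_normal (h : Pair Q P z s) : Q ⊔ P ≤ Subgroup.normalizer ((rad Q P z s : Subgroup G) : Set G) := by
  have key : ∀ {Q P : Subgroup G} {z s : G}, Pair Q P z s →
      Q ≤ Subgroup.normalizer ((rad Q P z s : Subgroup G) : Set G) := fun h x hx =>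
    Subgroup.mem_normalizer_iff.2 fun r => ⟨fun hr => rad_conj_Q h hx hr, fun hr => by
      have := rad_conj_Q h (inv_mem hx) hr
      simpa [mul_assoc] using this⟩
  refine sup_le (key h) ?_
  rw [← rad_symm]
  exact key h.symm

theorem rad_le_sup : rad Q P z s ≤ Q ⊔ P :=
  sup_le (inf_le_left.trans le_sup_right) (inf_le_left.trans le_sup_left)

theorem rad_isPGroup (h : Pair Q P z s) : IsPGroup 2 (rad Q P z s) := fun ⟨x, hx⟩ =>
  ⟨2, Subtype.ext (by
    show x ^ 2 ^ 2 = 1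
    rw [pow_two 2, pow_mul, pow_two x, E_sq h (rad_sq h hx)])⟩

/-- Three-cycle braid relation: elements of `Q ⊔ P` are six cosets of the radical. -/
theorem cases_mod_rad (h : Pair Q P z s) {g : G} (hP : P = Q.map (MulAut.conj g).toMonoidHom)
    (hs : s = g * z * g⁻¹) {x y : G} (hx : x ∈ Q) (hxc : x * s * x⁻¹ = s * z) (hy : y ∈ P)
    (hyc : y * z * y⁻¹ = z * s) {t : G} (ht : t ∈ Q ⊔ P) :
    ∃ u ∈ ({1, x, y, x * y, y * x, x * y * x} : Set G), u⁻¹ * t ∈ rad Q P z s := by
  classical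
  set R := rad Q P z s with hR
  have hN := rad_normal h
  haveI : (R.subgroupOf (Q ⊔ P)).Normal := Subgroup.normal_subgroupOf_of_le_normalizer hN
  let π := QuotientGroup.mk' (R.subgroupOf (Q ⊔ P))
  have hπ : ∀ {a b : ↥(Q ⊔ P)}, π a = π b ↔ (a : G)⁻¹ * b ∈ R := fun {a b} => by
    rw [QuotientGroup.mk'_apply, QuotientGroup.mk'_apply, QuotientGroup.eq]; rfl
  set X : ↥(Q ⊔ P) := ⟨x, Subgroup.mem_sup_left hx⟩
  set Y : ↥(Q ⊔ P) := ⟨y, Subgroup.mem_sup_right hy⟩
  set a := π X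
  set b := π Y
  have hQa : ∀ q : ↥(Q ⊔ P), (q : G) ∈ Q → π q = 1 ∨ π q = a := by
    intro q hq
    rcases conj_s h hq with e | e
    · left
      rw [← map_one π, eq_comm, hπ]
      simp only [OneMemClass.coe_one, inv_one, one_mul]
      exact CV_of_Q1 h hq (by
        calc (q : G) * s = q * s * (q : G)⁻¹ * q := by group
          _ = s * q := by rw [e])
    · right
      rw [eq_comm, hπ]
      refine CV_of_Q1 h (Q.mul_mem (Q.inv_mem hx) hq) ?_
      calc x⁻¹ * q * s = x⁻¹ * (q * s * (q : G)⁻¹) * q := by group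
        _ = x⁻¹ * (x * s * x⁻¹) * q := by rw [e, hxc]
        _ = s * (x⁻¹ * q) := by group
  have hPb : ∀ q : ↥(Q ⊔ P), (q : G) ∈ P → π q = 1 ∨ π q = b := by
    intro q hq
    rcases conj_s h.symm hq with e | e
    · left
      rw [← map_one π, eq_comm, hπ]
      simp only [OneMemClass.coe_one, inv_one, one_mul]
      rw [hR, ← rad_symm]
      exact CV_of_Q1 h.symm hq (by
        calc (q : G) * z = q * z * (q : G)⁻¹ * q := by group
          _ = z * q := by rw [e])
    · right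
      rw [eq_comm, hπ, hR, ← rad_symm]
      refine CV_of_Q1 h.symm (P.mul_mem (P.inv_mem hy) hq) ?_
      calc y⁻¹ * q * z = y⁻¹ * (q * z * (q : G)⁻¹) * q := by group
        _ = y⁻¹ * (y * z * y⁻¹) * q := by rw [e, hyc]
        _ = z * (y⁻¹ * q) := by group
  have ha2 : a * a = 1 := by
    rw [← map_mul, ← map_one π, eq_comm, hπ]
    simp only [OneMemClass.coe_one, inv_one, one_mul, Subgroup.coe_mul]
    show x * x ∈ R
    rcases h.e.sq_mem hx with e | e <;> rw [e]
    · exact one_mem _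
    · exact E_le_rad h ⟨h.e.mem, h.zP⟩
  have hb2 : b * b = 1 := by
    rw [← map_mul, ← map_one π, eq_comm, hπ]
    simp only [OneMemClass.coe_one, inv_one, one_mul, Subgroup.coe_mul]
    show y * y ∈ R
    rcases h.f.sq_mem hy with e | e <;> rw [e]
    · exact one_mem _
    · exact E_le_rad h ⟨h.sQ, h.f.mem⟩
  -- both conjugates are the extraspecial subgroup with centre `s z`
  have hzs : z * s = s * z := h.e.comm s h.sQ
  set k := y⁻¹ * (x * g) with hk
  have hkz : k * z = z * k := by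
    have e1 : x * g * z = s * z * (x * g) := by
      calc x * g * z = x * (g * z * g⁻¹) * x⁻¹ * (x * g) := by group
        _ = s * z * (x * g) := by rw [← hs, hxc]
    calc k * z = y⁻¹ * (x * g * z) := by rw [hk]; group
      _ = y⁻¹ * (z * s * (x * g)) := by rw [e1, hzs]
      _ = y⁻¹ * (y * z * y⁻¹ * (x * g)) := by rw [hyc]
      _ = z * k := by rw [hk]; group
  have hkz' : k⁻¹ * z = z * k⁻¹ := by
    calc k⁻¹ * z = k⁻¹ * (z * k) * k⁻¹ := by group
      _ = k⁻¹ * (k * z) * k⁻¹ := by rw [hkz]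
      _ = _ := by group
  set p₀ := g * (k⁻¹ * x * k⁻¹⁻¹) * g⁻¹ with hp₀
  have hp₀P : p₀ ∈ P := hP ▸ ⟨_, h.nQ _ hkz' x hx, rfl⟩
  have ep : y * x * y⁻¹ = x * p₀ * x⁻¹ := by rw [hp₀, hk]; group
  set P0 : ↥(Q ⊔ P) := ⟨p₀, Subgroup.mem_sup_right hp₀P⟩
  have habY : b * a * b = a * π P0 * a := by
    have e : Y * X * Y⁻¹ = X * P0 * X⁻¹ := Subtype.ext ep
    have := congrArg π e
    rw [map_mul, map_mul, map_mul, map_mul, map_inv, map_inv] at this
    change b * a * b⁻¹ = a * π P0 * a⁻¹ at this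
    rwa [inv_eq_of_mul_eq_one_right ha2, inv_eq_of_mul_eq_one_right hb2] at this
  have hbraid : b * a * b = a * b * a := by
    rcases hPb P0 hp₀P with e | e
    · exfalso
      rw [e, mul_one, ha2] at habY
      have : a = 1 := by
        calc a = b * (b * a * b) * b := by
              rw [show b * (b * a * b) * b = (b * b) * a * (b * b) by simp only [mul_assoc], hb2, one_mul, mul_one]
          _ = 1 := by rw [habY, mul_one, hb2]
      rw [← map_one π, eq_comm, hπ] at this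
      simp only [OneMemClass.coe_one, inv_one, one_mul] at this
      have h1 := (mem_CV.1 (rad_le_CV h this)).2
      have h2 : s * z = s := by rw [← hxc]; show x * s * x⁻¹ = s; rw [show x * s = s * x from h1]; group
      exact h.e.ne_one (mul_eq_left.1 h2)
    · rw [habY, e]
  suffices H : ∀ t : ↥(Q ⊔ P), π t ∈ ({1, a, b, a * b, b * a, a * b * a} : Set _) by
    rcases H ⟨t, ht⟩ with e | e | e | e | e | e
    · exact ⟨1, by simp, by rw [← map_one π] at e; exact hπ.1 e.symm⟩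
    · exact ⟨x, by simp, hπ.1 e.symm⟩
    · exact ⟨y, by simp, hπ.1 e.symm⟩
    · exact ⟨x * y, by simp, by
        have e' : π (X * Y) = π ⟨t, ht⟩ := by rw [map_mul]; exact e.symm
        exact hπ.1 e'⟩
    · exact ⟨y * x, by simp, by
        have e' : π (Y * X) = π ⟨t, ht⟩ := by rw [map_mul]; exact e.symm
        exact hπ.1 e'⟩
    · exact ⟨x * y * x, by simp, by
        have e' : π (X * Y * X) = π ⟨t, ht⟩ := by rw [map_mul, map_mul]; exact e.symm
        exact hπ.1 e'⟩
  intro t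
  obtain ⟨t, ht⟩ := t
  have hcl : Q ⊔ P = Subgroup.closure ((Q : Set G) ∪ P) := by
    rw [Subgroup.closure_union, Subgroup.closure_eq, Subgroup.closure_eq]
  have hmul : ∀ u ∈ ({1, a, b, a * b, b * a, a * b * a} : Set _), ∀ v, v = 1 ∨ v = a ∨ v = b →
      u * v ∈ ({1, a, b, a * b, b * a, a * b * a} : Set _) := by
    intro u hu v hv
    have m1 : b * a * a = b := by rw [mul_assoc, ha2, mul_one]
    have m2 : a * b * a * a = a * b := by rw [mul_assoc, ha2, mul_one]
    have m3 : a * b * b = a := by rw [mul_assoc, hb2, mul_one]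
    have m4 : a * b * a * b = b * a := by
      rw [← hbraid, mul_assoc (b * a) b b, hb2, mul_one]
    simp only [Set.mem_insert_iff, Set.mem_singleton_iff] at hu ⊢
    rcases hu with rfl | rfl | rfl | rfl | rfl | rfl <;> rcases hv with rfl | rfl | rfl <;>
      simp [ha2, hb2, m1, m2, m3, m4, hbraid]
  have key : ∀ (hm : t ∈ Q ⊔ P), π ⟨t, hm⟩ ∈ ({1, a, b, a * b, b * a, a * b * a} : Set _) := by
    have hm' : t ∈ Subgroup.closure ((Q : Set G) ∪ P) := hcl ▸ ht
    induction hm' using Subgroup.closure_induction_right with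
    | one =>
      intro hm
      exact Or.inl (map_one π)
    | mul_right p hp q hq ih =>
      intro hm
      have hpm : p ∈ Q ⊔ P := hcl ▸ hp
      have hqm : q ∈ Q ⊔ P := by
        rcases hq with h' | h'
        exacts [Subgroup.mem_sup_left h', Subgroup.mem_sup_right h']
      have e : (⟨p * q, hm⟩ : ↥(Q ⊔ P)) = ⟨p, hpm⟩ * ⟨q, hqm⟩ := rfl
      rw [e, map_mul]
      refine hmul _ (ih hpm hpm) _ ?_
      rcases hq with h' | h'
      · rcases hQa ⟨q, hqm⟩ h' with e' | e' <;> simp [e']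
      · rcases hPb ⟨q, hqm⟩ h' with e' | e' <;> simp [e']
    | mul_inv_cancel p hp q hq ih =>
      intro hm
      have hpm : p ∈ Q ⊔ P := hcl ▸ hp
      have hqm : q⁻¹ ∈ Q ⊔ P := by
        rcases hq with h' | h'
        exacts [Subgroup.mem_sup_left (inv_mem h'), Subgroup.mem_sup_right (inv_mem h')]
      have e : (⟨p * q⁻¹, hm⟩ : ↥(Q ⊔ P)) = ⟨p, hpm⟩ * ⟨q⁻¹, hqm⟩ := rfl
      rw [e, map_mul]
      refine hmul _ (ih hpm hpm) _ ?_
      rcases hq with h' | h'
      · rcases hQa ⟨q⁻¹, hqm⟩ (inv_mem h') with e' | e' <;> simp [e']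
      · rcases hPb ⟨q⁻¹, hqm⟩ (inv_mem h') with e' | e' <;> simp [e']
  exact key ht

end CfsgLib.LargeEx
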