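import Cfsg.Agent.LargeEx.Conjugate
import Cfsg.Agent.CoprimeAction.Frattini
import Cfsg.Agent.CoprimeAction.Basic
import Cfsg.Agent.Components.Basic

set_option autoImplicit false

/-! Tools for extraspecial images in quotients of centralisers. -/

open scoped commutatorElement

namespace CfsgLib.LargeEx

variable {G : Type*} [Group G]

theorem isExtraspecial_of [Finite G] {Q R : Subgroup G} {z : G} (e : ExtraData Q z)
    (hRQ : R ≤ Q) (hz : z ∈ R) (hcen : ∀ r ∈ R, (∀ x ∈ R, r * x = x * r) → r = 1 ∨ r = z)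
    (hna : ∃ x ∈ R, ∃ y ∈ R, x * y ≠ y * x) : Cfsg.IsExtraspecial 2 ↥R := by
  haveI : Fact (Nat.Prime 2) := ⟨Nat.prime_two⟩
  have hp : IsPGroup 2 R := e.isPGroup.to_le hRQ
  have hmem : ∀ r : R, r ∈ Subgroup.center ↥R ↔ (r : G) = 1 ∨ (r : G) = z := by
    intro r
    constructor
    · intro hr
      exact hcen r r.2 fun x hx => (congrArg Subtype.val (Subgroup.mem_center_iff.1 hr ⟨x, hx⟩)).symm
    · intro hr
      rw [Subgroup.mem_center_iff]
      intro x
      refine Subtype.ext ?_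
      show (x : G) * r = r * x
      rcases hr with h | h <;> rw [h]
      · simp
      · exact (e.comm x (hRQ x.2)).symm
  have hcard : Nat.card (Subgroup.center ↥R) = 2 := by
    refine (Nat.card_eq_two_iff' (1 : Subgroup.center ↥R)).2 ⟨⟨⟨z, hz⟩, (hmem _).2 (Or.inr rfl)⟩, ?_, fun y hy => ?_⟩
    · intro h
      exact e.ne_one (congrArg (fun c : Subgroup.center ↥R => ((c : R) : G)) h)
    · rcases (hmem y.1).1 y.2 with h | h
      · exact absurd (Subtype.ext (Subtype.ext h)) hy
      · exact Subtype.ext (Subtype.ext h)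
  have hle : commutator ↥R ≤ Subgroup.center ↥R := by
    rw [commutator_def, Subgroup.commutator_le]
    intro x _ y _
    rw [hmem]
    show (x : G) * y * (x : G)⁻¹ * (y : G)⁻¹ = 1 ∨ (x : G) * y * (x : G)⁻¹ * (y : G)⁻¹ = z
    rcases e.bracket x (hRQ x.2) y (hRQ y.2) with h | h
    · left; rw [h]; group
    · right
      rw [h, mul_assoc (y : G) x z, ← e.comm x (hRQ x.2), ← mul_assoc, ← e.comm y (hRQ y.2)]
      group
  have hcomm : commutator ↥R = Subgroup.center ↥R := by
    refine le_antisymm hle ?_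
    by_contra h
    obtain ⟨x, hx, y, hy, hxy⟩ := hna
    apply hxy
    have hbot : commutator ↥R = ⊥ := by
      rw [Subgroup.eq_bot_iff_forall]
      intro w hw
      by_contra hw1
      apply h
      intro c hc
      rcases (hmem c).1 hc with h1 | h1
      · rw [show c = 1 from Subtype.ext h1]; exact one_mem _
      · rcases (hmem w).1 (hle hw) with h2 | h2
        · exact absurd (Subtype.ext h2) hw1
        · rw [show c = w from Subtype.ext (h1.trans h2.symm)]; exact hw
    have hm : ⁅(⟨x, hx⟩ : R), (⟨y, hy⟩ : R)⁆ ∈ commutator ↥R :=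
      Subgroup.commutator_mem_commutator (Subgroup.mem_top _) (Subgroup.mem_top _)
    rw [hbot, Subgroup.mem_bot, commutatorElement_eq_one_iff_mul_comm] at hm
    exact congrArg Subtype.val hm
  refine ⟨⟨hp, le_antisymm ?_ ?_, hcomm⟩, hcard⟩
  · refine CfsgLib.CoprimeAction.frattini_le_of_elementary (p := 2) _ hle fun x => (hmem _).2 ?_
    rw [Subgroup.coe_pow, pow_two]
    exact e.sq_mem (hRQ x.2)
  · rw [← hcomm]
    exact CfsgLib.CoprimeAction.commutator_le_frattini' hp

/-- Constructor of `ExtraData` deriving the description of the centre. -/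
theorem extraData_mk {Q : Subgroup G} {z : G} (hmem : z ∈ Q) (hne : z ≠ 1) (hsq : z * z = 1)
    (hcomm : ∀ x ∈ Q, z * x = x * z) (hcen : ∀ c ∈ Q, (∀ x ∈ Q, c * x = x * c) → c = 1 ∨ c = z)
    (hbr : ∀ x ∈ Q, ∀ y ∈ Q, x * y = y * x ∨ x * y = y * x * z)
    (hna : ∃ x ∈ Q, ∃ y ∈ Q, x * y ≠ y * x) (hp : IsPGroup 2 Q) : ExtraData Q z where
  mem := hmem
  ne_one := hne
  sq := hsq
  comm := hcomm
  central := hcen
  bracket := hbr
  center_eq := by
    apply le_antisymm
    · rintro _ ⟨c, hc, rfl⟩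
      rcases hcen _ c.2 (fun x hx =>
        (congrArg Subtype.val (Subgroup.mem_center_iff.1 hc ⟨x, hx⟩)).symm) with h | h
      · simp [h]
      · simp [h]
    · rw [Subgroup.zpowers_le]
      exact ⟨⟨z, hmem⟩, Subgroup.mem_center_iff.2 fun x => Subtype.ext (hcomm x x.2).symm, rfl⟩
  nonabelian := hna
  isPGroup := hp

/-- The extraspecial image of a subgroup of `Q` in a quotient of a subgroup `M`. -/
theorem extraData_image [Finite G] {Q P M : Subgroup G} {z : G} (e : ExtraData Q z) {H : Type*} [Group H]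
    [Finite H] (f : ↥M →* H) (hPQ : P ≤ Q) (hPM : P ≤ M) (hzP : z ∈ P)
    (hfz : f ⟨z, hPM hzP⟩ ≠ 1)
    (hcen : ∀ c : ↥M, (c : G) ∈ P → (∀ x : ↥M, (x : G) ∈ P → f (c * x) = f (x * c)) →
      f c = 1 ∨ f c = f ⟨z, hPM hzP⟩)
    (hna : ∃ x y : ↥M, (x : G) ∈ P ∧ (y : G) ∈ P ∧ f (x * y) ≠ f (y * x)) :
    ExtraData ((P.subgroupOf M).map f) (f ⟨z, hPM hzP⟩) ∧
      Cfsg.IsExtraspecial 2 ↥((P.subgroupOf M).map f) := by
  have hp : IsPGroup 2 ↥((P.subgroupOf M).map f) :=
    ((e.isPGroup.to_le hPQ).of_equiv (Subgroup.subgroupOfEquivOfLe hPM).symm).map f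
  have e' : ExtraData ((P.subgroupOf M).map f) (f ⟨z, hPM hzP⟩) := by
    refine extraData_mk ⟨_, hzP, rfl⟩ hfz ?_ ?_ ?_ ?_ ?_ hp
    · rw [← map_mul, show (⟨z, hPM hzP⟩ : ↥M) * ⟨z, hPM hzP⟩ = 1 from Subtype.ext e.sq, map_one]
    · rintro _ ⟨x, hx, rfl⟩
      rw [← map_mul, ← map_mul, show (⟨z, hPM hzP⟩ : ↥M) * x = x * ⟨z, hPM hzP⟩ from
        Subtype.ext (e.comm x (hPQ hx))]
    · rintro _ ⟨c, hc, rfl⟩ h
      exact hcen c hc fun x hx => by rw [map_mul, map_mul]; exact h _ ⟨x, hx, rfl⟩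
    · rintro _ ⟨x, hx, rfl⟩ _ ⟨y, hy, rfl⟩
      rcases e.bracket x (hPQ hx) y (hPQ hy) with h | h
      · exact Or.inl (by rw [← map_mul, ← map_mul, show x * y = y * x from Subtype.ext h])
      · exact Or.inr (by
          rw [← map_mul, ← map_mul, ← map_mul,
            show x * y = y * x * ⟨z, hPM hzP⟩ from Subtype.ext h])
    · obtain ⟨x, y, hx, hy, hne⟩ := hna
      exact ⟨_, ⟨x, hx, rfl⟩, _, ⟨y, hy, rfl⟩, by rw [← map_mul, ← map_mul]; exact hne⟩
  exact ⟨e', isExtraspecial_of e' le_rfl e'.mem e'.central e'.nonabelian⟩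

/-- Data extracted from an involution whose centraliser has extraspecial generalised Fitting subgroup. -/
theorem setup_of_fstar [Finite G] (z : G) (hz : orderOf z = 2) (Q : Subgroup G)
    (hQC : Q ≤ Subgroup.centralizer ({z} : Set G))
    (hF : (Cfsg.generalizedFittingSubgroup ↥(Subgroup.centralizer ({z} : Set G))).map
      (Subgroup.centralizer ({z} : Set G)).subtype = Q)
    (hQ : Cfsg.IsExtraspecial 2 ↥Q) :
    ExtraData Q z ∧ Subgroup.centralizer (Q : Set G) = (Subgroup.center ↥Q).map Q.subtype ∧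
      Subgroup.centralizer ({z} : Set G) ≤ Subgroup.normalizer (Q : Set G) := by
  set C := Subgroup.centralizer ({z} : Set G) with hC
  obtain ⟨z', e⟩ := exists_extraData hQ
  have hFle := CfsgLib.Components.centralizer_generalizedFittingSubgroup_le (G := ↥C)
  have hzC : z ∈ C := Subgroup.mem_centralizer_singleton_iff.2 rfl
  have hzQ : z ∈ Q := by
    rw [← hF]
    refine ⟨⟨z, hzC⟩, hFle ?_, rfl⟩
    rw [Subgroup.mem_centralizer_iff]
    intro y _
    exact Subtype.ext (Subgroup.mem_centralizer_singleton_iff.1 y.2)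
  have hz1 : z ≠ 1 := fun h => by simp [h] at hz
  have hzz : z = z' := by
    refine (e.central z hzQ fun x hx => ?_).resolve_left hz1
    exact (Subgroup.mem_centralizer_singleton_iff.1 (hQC hx)).symm
  subst hzz
  refine ⟨e, le_antisymm ?_ ?_, ?_⟩
  · intro c hc
    have hcC : c ∈ C := Subgroup.mem_centralizer_singleton_iff.2
      (Subgroup.mem_centralizer_iff.1 hc z hzQ).symm
    have hcQ : c ∈ Q := by
      rw [← hF]
      refine ⟨⟨c, hcC⟩, hFle ?_, rfl⟩
      rw [Subgroup.mem_centralizer_iff]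
      intro y hy
      exact Subtype.ext (Subgroup.mem_centralizer_iff.1 hc (y : G) (hF ▸ ⟨y, hy, rfl⟩))
    exact e.mem_center_iff.2 (e.central c hcQ fun x hx => (Subgroup.mem_centralizer_iff.1 hc x hx).symm)
  · intro c hc
    rw [Subgroup.mem_centralizer_iff]
    intro x hx
    rcases e.mem_center_iff.1 hc with rfl | rfl
    · simp
    · exact (e.comm x hx).symm
  · have hn := CfsgLib.Components.generalizedFittingSubgroup_normal (G := ↥C)
    have hconj : ∀ c ∈ C, ∀ q ∈ Q, c * q * c⁻¹ ∈ Q := by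
      intro c hc q hq
      rw [← hF] at hq ⊢
      obtain ⟨y, hy, rfl⟩ := hq
      exact ⟨⟨c, hc⟩ * y * ⟨c, hc⟩⁻¹, hn.conj_mem y hy _, rfl⟩
    intro c hc
    rw [Subgroup.mem_normalizer_iff]
    refine fun q => ⟨hconj c hc q, fun h => ?_⟩
    have := hconj c⁻¹ (inv_mem hc) _ h
    simpa [mul_assoc] using this

/-- An element of the fixed points of `A` on `Q`, central there, is central in `Q`. -/
theorem central_in_fixed [Finite G] {Q A : Subgroup G} {z : G} (e : ExtraData Q z)
    (hA : A ≤ Subgroup.normalizer (Q : Set G)) (hAodd : Odd (Nat.card A))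
    (hzA : ∀ a ∈ A, a * z = z * a) {c : G} (hc : c ∈ Q ⊓ Subgroup.centralizer (A : Set G))
    (h : ∀ x ∈ Q ⊓ Subgroup.centralizer (A : Set G), c * x = x * c) : c = 1 ∨ c = z := by
  haveI : Fact (Nat.Prime 2) := ⟨Nat.prime_two⟩
  obtain ⟨n, hn⟩ := e.isPGroup.exists_card_eq
  have hcop : (Nat.card A).Coprime (Nat.card Q) := by
    rw [hn]; exact Nat.Coprime.pow_right n (Nat.coprime_two_right.2 hAodd)
  have hsolv : Group.IsSolvable A ∨ Group.IsSolvable Q :=
    Or.inr (haveI := e.isPGroup.isNilpotent; inferInstance)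
  have hgen : ∀ y ∈ ⁅Q, A⁆, c * y = y * c := by
    have hle : ⁅Q, A⁆ ≤ Subgroup.centralizer ({c} : Set G) := by
      rw [Subgroup.commutator_le]
      intro k hk a ha
      rw [Subgroup.mem_centralizer_singleton_iff, commutatorElement_def]
      have hca : a * c = c * a := Subgroup.mem_centralizer_iff.1 hc.2 a ha
      have hca' : a⁻¹ * c = c * a⁻¹ := by
        calc a⁻¹ * c = a⁻¹ * (c * a) * a⁻¹ := by group
          _ = c * a⁻¹ := by rw [← hca]; group
      have hzaz : z * a * z = a := by rw [← hzA a ha, mul_assoc, e.sq, mul_one]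
      rcases e.bracket k hk c hc.1 with hkc | hkc
      · have hkc' : k⁻¹ * c = c * k⁻¹ := by
          calc k⁻¹ * c = k⁻¹ * (c * k) * k⁻¹ := by group
            _ = c * k⁻¹ := by rw [← hkc]; group
        calc k * a * k⁻¹ * a⁻¹ * c = k * a * k⁻¹ * (a⁻¹ * c) := by group
          _ = k * a * (k⁻¹ * c) * a⁻¹ := by rw [hca']; group
          _ = k * (a * c) * k⁻¹ * a⁻¹ := by rw [hkc']; group
          _ = (k * c) * a * k⁻¹ * a⁻¹ := by rw [hca]; group
          _ = c * (k * a * k⁻¹ * a⁻¹) := by rw [hkc]; group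
      · have hkc' : k⁻¹ * c = c * z * k⁻¹ := by
          calc k⁻¹ * c = k⁻¹ * (c * k * z) * z⁻¹ * k⁻¹ := by group
            _ = k⁻¹ * (k * c) * z⁻¹ * k⁻¹ := by rw [hkc]
            _ = c * z * k⁻¹ := by rw [e.inv_eq]; group
        calc k * a * k⁻¹ * a⁻¹ * c = k * a * k⁻¹ * (a⁻¹ * c) := by group
          _ = k * a * (k⁻¹ * c) * a⁻¹ := by rw [hca']; group
          _ = k * (a * c) * z * k⁻¹ * a⁻¹ := by rw [hkc']; group
          _ = (k * c) * a * z * k⁻¹ * a⁻¹ := by rw [hca]; group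
          _ = c * k * (z * a * z) * k⁻¹ * a⁻¹ := by rw [hkc]; group
          _ = c * (k * a * k⁻¹ * a⁻¹) := by rw [hzaz]; group
    intro y hy
    exact (Subgroup.mem_centralizer_singleton_iff.1 (hle hy)).symm
  refine e.central c hc.1 fun k hk => ?_
  obtain ⟨m, hm, d, hd, rfl⟩ :=
    CfsgLib.CoprimeAction.exists_commutator_mul_centralizer hA hcop hsolv hk
  calc c * (m * d) = (c * m) * d := by group
    _ = (m * c) * d := by rw [hgen m hm]
    _ = m * (d * c) := by rw [mul_assoc, h d hd]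
    _ = m * d * c := by group

/-- An extraspecial subgroup of width at least two containing a conjugate of its central involution
is large. -/
theorem large_of_conj [Finite G] {Q : Subgroup G} {z : G} (e : ExtraData Q z)
    (hQ : Cfsg.IsExtraspecial 2 ↥Q)
    (hL2 : Subgroup.centralizer (Q : Set G) = (Subgroup.center ↥Q).map Q.subtype)
    (hN : Subgroup.centralizer ({z} : Set G) ≤ Subgroup.normalizer (Q : Set G))
    (hcard : 8 < Nat.card Q) (g : G) (hsQ : g * z * g⁻¹ ∈ Q) (hsz : g * z * g⁻¹ ≠ z) :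
    Cfsg.IsLargeExtraspecial Q := by
  set s := g * z * g⁻¹ with hs
  have hL3 : Subgroup.centralizer (((Subgroup.center ↥Q).map Q.subtype) : Set G) ≤
      Subgroup.normalizer (Q : Set G) := fun c hc => hN (Subgroup.mem_centralizer_singleton_iff.2
    (Subgroup.mem_centralizer_iff.1 hc z (e.mem_center_iff.2 (Or.inr rfl))).symm)
  have hC : Subgroup.centralizer (Q : Set G) ≤ Q := hL2 ▸ Subgroup.map_subtype_le _
  have hzR := mem_conj_of_conj_mem e hC hN hcard g hsQ hsz
  have eR : ExtraData (Q.map (MulAut.conj g).toMonoidHom) s := by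
    have := e.map (MulAut.conj g).toMonoidHom (MulAut.conj g).injective
    have h2 : (MulAut.conj g).toMonoidHom z = s := by simp [hs]
    rw [h2] at this
    exact this
  have hs1 : s ≠ 1 := eR.ne_one
  have hs2 : s * s = 1 := eR.sq
  refine ⟨hQ, hL2, hL3, fun K hK hQK => ?_⟩
  refine odd_invariant_eq_bot e hL2 hL3 hsQ hs1 hsz hs2 ?_ hK hQK
  -- `z ∈ Q^g`, a normal 2-subgroup of `C(s)`
  have hle : Q.map (MulAut.conj g).toMonoidHom ≤ Subgroup.centralizer ({s} : Set G) :=
    fun x hx => Subgroup.mem_centralizer_singleton_iff.2 (eR.comm x hx).symm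
  have hnorm : ((Q.map (MulAut.conj g).toMonoidHom).subgroupOf
      (Subgroup.centralizer ({s} : Set G))).Normal := by
    rw [Subgroup.normal_subgroupOf_iff hle]
    rintro x c ⟨a, ha, rfl⟩ hc
    have hcg : g⁻¹ * c * g ∈ Subgroup.centralizer ({z} : Set G) := by
      rw [Subgroup.mem_centralizer_singleton_iff] at hc ⊢
      calc g⁻¹ * c * g * z = g⁻¹ * (c * s) * g := by rw [hs]; group
        _ = g⁻¹ * (s * c) * g := by rw [hc]
        _ = z * (g⁻¹ * c * g) := by rw [hs]; group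
    have h := (Subgroup.mem_normalizer_iff.1 (hN hcg) a).1 ha
    refine ⟨_, h, ?_⟩
    show g * (g⁻¹ * c * g * a * (g⁻¹ * c * g)⁻¹) * g⁻¹ = c * (g * a * g⁻¹) * c⁻¹
    group
  have hp : IsPGroup 2 ↥((Q.map (MulAut.conj g).toMonoidHom).subgroupOf
      (Subgroup.centralizer ({s} : Set G))) :=
    eR.isPGroup.of_equiv (Subgroup.subgroupOfEquivOfLe hle).symm
  show z ∈ (Cfsg.pCore 2 ↥(Subgroup.centralizer ({s} : Set G))).map
    (Subgroup.centralizer ({s} : Set G)).subtype
  refine ⟨⟨z, hle hzR⟩, ?_, rfl⟩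
  exact Subgroup.mem_sSup_of_mem (S := {N | N.Normal ∧ IsPGroup 2 N}) (s := (Q.map (MulAut.conj g).toMonoidHom).subgroupOf
      (Subgroup.centralizer ({s} : Set G))) ⟨hnorm, hp⟩ hzR

end CfsgLib.LargeEx
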